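import Mathlib
import Cfsg.Agent.Lib.Helper33.Torus.Final
import Cfsg.Agent.Lib.Helper37.Torus.Small

set_option autoImplicit false
set_option linter.unusedVariables false
set_option linter.style.haveILetI false

/-!
helper31, pushing-up lemmas (S2768-S2770): transport of the TORUS core bound (helper33's
`pkgCoreThm`) from a faithful action to an arbitrary conjugation action on a normal `p`-subgroup
`U` of a finite group, through the holomorph `U ⋊ Aut(U)`.
-/

namespace Cfsg.Agent.Lib.Helper31.PU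

open Cfsg.Agent.Lib.Helper33.Torus

universe u

/-- the centre of `SL₂(F)` has exponent dividing `2`. -/
theorem sl2_center_sq {F : Type} [Field F] (z : Matrix.SpecialLinearGroup (Fin 2) F)
    (hz : z ∈ Subgroup.center (Matrix.SpecialLinearGroup (Fin 2) F)) : z ^ 2 = 1 := by
  rw [Matrix.SpecialLinearGroup.mem_center_iff] at hz
  obtain ⟨r, hr, hA⟩ := hz
  rw [Fintype.card_fin] at hr
  apply Subtype.ext
  rw [Matrix.SpecialLinearGroup.coe_pow, ← hA, ← map_pow, hr, map_one]
  rfl

/-- TORUS bound for a conjugation action on a normal `p`-subgroup, case `n ≥ 2`. -/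
theorem torus_core {G₀ : Type u} [Group G₀] [Finite G₀] {p : ℕ} [Fact p.Prime]
    (U : Subgroup G₀) [hUn : U.Normal] (hU : IsPGroup p U)
    {F : Type} [Field F] [Fintype F] (n : ℕ) (hF : Fintype.card F = p ^ n) (hn : 2 ≤ n)
    (π : G₀ →* Matrix.ProjectiveSpecialLinearGroup (Fin 2) F) (hπ : Function.Surjective π)
    (hker : Subgroup.centralizer (U : Set G₀) ≤ π.ker)
    (s : G₀) (hs : ∃ j : ℕ, s ^ (p ^ j) = 1) (hπs : π s ≠ 1) :
    p ^ n ≤ (U ⊓ Subgroup.centralizer ({s} : Set G₀)).relIndex U ∧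
      p ^ (2 * n) ≤ Nat.card U := by
  classical
  obtain ⟨Hol, hHol⟩ : ∃ T : Type u, T = (↥U ⋊[MonoidHom.id (MulAut ↥U)] MulAut ↥U) := ⟨_, rfl⟩
  subst hHol
  haveI : Finite (↥U ⋊[MonoidHom.id (MulAut ↥U)] MulAut ↥U) :=
    Finite.of_equiv _ SemidirectProduct.equivProd.symm
  let iL : ↥U →* (↥U ⋊[MonoidHom.id (MulAut ↥U)] MulAut ↥U) := SemidirectProduct.inl
  let iR : MulAut ↥U →* (↥U ⋊[MonoidHom.id (MulAut ↥U)] MulAut ↥U) := SemidirectProduct.inr
  let φ : G₀ →* MulAut ↥U := MulAut.conjNormal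
  let f : G₀ →* (↥U ⋊[MonoidHom.id (MulAut ↥U)] MulAut ↥U) := iR.comp φ
  have hiL : Function.Injective iL := SemidirectProduct.inl_injective
  have hiR : Function.Injective iR := SemidirectProduct.inr_injective
  -- the basic conjugation formula
  have hconj : ∀ (g : G₀) (u : ↥U), f g * iL u * (f g)⁻¹ = iL (φ g u) := by
    intro g u
    have h := SemidirectProduct.inl_aut (φ := MonoidHom.id (MulAut ↥U)) (φ g) u
    rw [map_inv] at h
    exact h.symm
  have hφ : ∀ (g : G₀) (u : ↥U), ((φ g u : ↥U) : G₀) = g * (u : G₀) * g⁻¹ := by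
    intro g u
    exact MulAut.conjNormal_apply g u
  have hVn : (iL.range).Normal := by
    have h : iL.range = (SemidirectProduct.rightHom
        (φ := MonoidHom.id (MulAut ↥U))).ker := SemidirectProduct.range_inl_eq_ker_rightHom
    rw [h]
    infer_instance
  have hVp : IsPGroup p ↥(iL.range) :=
    hU.of_surjective iL.rangeRestrict iL.rangeRestrict_surjective
  have hHV : f.range ≤ Subgroup.normalizer ((iL.range : Subgroup _) : Set _) := by
    rw [Subgroup.normalizer_eq_top]
    exact le_top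
  have hfaith : f.range ⊓ Subgroup.centralizer ((iL.range : Subgroup _) : Set _) = ⊥ := by
    rw [eq_bot_iff]
    rintro x ⟨⟨g, rfl⟩, hx2⟩
    rw [Subgroup.mem_bot]
    have h1 : φ g = 1 := by
      ext u
      have h2 := Subgroup.mem_centralizer_iff.mp hx2 (iL u) ⟨u, rfl⟩
      have h3 : iL (φ g u) = iL u := by
        rw [← hconj g u, ← h2, mul_inv_cancel_right]
      have h4 := hiL h3
      rw [h4]
      rfl
    show iR (φ g) = 1
    rw [h1, map_one]
  have hk : f.rangeRestrict.ker ≤ π.ker := by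
    rw [MonoidHom.ker_rangeRestrict]
    intro g hg
    apply hker
    rw [Subgroup.mem_centralizer_iff]
    intro h hh
    have h1 : φ g = 1 := by
      apply hiR
      rw [map_one]
      exact hg
    have h2 := hφ g ⟨h, hh⟩
    rw [h1] at h2
    have h3 : h = g * h * g⁻¹ := h2
    calc h * g = g * h * g⁻¹ * g := by rw [← h3]
      _ = g * h := by group
  let π' : ↥(f.range) →* Matrix.ProjectiveSpecialLinearGroup (Fin 2) F :=
    (f.rangeRestrict.liftOfSurjective f.rangeRestrict_surjective) ⟨π, hk⟩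
  have hπ' : ∀ g : G₀, π' (f.rangeRestrict g) = π g := by
    intro g
    exact MonoidHom.liftOfRightInverse_comp_apply _ _ _ ⟨π, hk⟩ g
  have hπ's : Function.Surjective π' := by
    intro y
    obtain ⟨g, rfl⟩ := hπ y
    exact ⟨f.rangeRestrict g, hπ' g⟩
  let ψ : SL2 F →* Matrix.ProjectiveSpecialLinearGroup (Fin 2) F :=
    QuotientGroup.mk' (Subgroup.center (Matrix.SpecialLinearGroup (Fin 2) F))
  have hψ : Function.Surjective ψ := QuotientGroup.mk'_surjective _
  have hψk : ∀ z ∈ ψ.ker, z ^ 2 = 1 := by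
    intro z hz
    have h1 : ψ.ker = Subgroup.center (Matrix.SpecialLinearGroup (Fin 2) F) :=
      QuotientGroup.ker_mk' _
    rw [h1] at hz
    exact sl2_center_sq z hz
  obtain ⟨j, hj⟩ := hs
  have hs' : ∃ j : ℕ, (f.rangeRestrict s) ^ (p ^ j) = 1 := ⟨j, by rw [← map_pow, hj, map_one]⟩
  have hπs' : π' (f.rangeRestrict s) ≠ 1 := by
    rw [hπ']
    exact hπs
  have hcore := pkgCoreThm.{u, 0} p (iL.range) (f.range) hVp hHV hfaith F n hF (Or.inl hn)
    (Matrix.ProjectiveSpecialLinearGroup (Fin 2) F) π' ψ hπ's hψ hψk (f.rangeRestrict s) hs' hπs'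
  have hcoe : ((f.rangeRestrict s : ↥(f.range)) : _) = f s := rfl
  rw [hcoe] at hcore
  -- transport back
  have hcardV : Nat.card ↥(iL.range) = Nat.card ↥U :=
    (Nat.card_congr (MonoidHom.ofInjective hiL).toEquiv).symm
  have hD : iL.range ⊓ Subgroup.centralizer ({f s} : Set _) =
      ((U ⊓ Subgroup.centralizer ({s} : Set G₀)).subgroupOf U).map iL := by
    ext x
    constructor
    · rintro ⟨⟨u, rfl⟩, hx2⟩
      have h2 := Subgroup.mem_centralizer_iff.mp hx2 (f s) rfl
      have h3 : iL (φ s u) = iL u := by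
        rw [← hconj s u, h2, mul_inv_cancel_right]
      have h4 := hiL h3
      have h5 : s * (u : G₀) * s⁻¹ = (u : G₀) := by
        rw [← hφ s u, h4]
      refine ⟨u, ?_, rfl⟩
      apply Subgroup.mem_subgroupOf.mpr
      refine ⟨u.2, ?_⟩
      apply Subgroup.mem_centralizer_iff.mpr
      intro h hh
      rw [Set.mem_singleton_iff] at hh
      subst hh
      calc h * (u : G₀) = h * (u : G₀) * h⁻¹ * h := by group
        _ = (u : G₀) * h := by rw [h5]
    · rintro ⟨u, hu0, rfl⟩
      have hu := Subgroup.mem_subgroupOf.mp hu0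
      refine ⟨⟨u, rfl⟩, ?_⟩
      apply Subgroup.mem_centralizer_iff.mpr
      intro h hh
      rw [Set.mem_singleton_iff] at hh
      subst hh
      have h5 : s * (u : G₀) = (u : G₀) * s :=
        Subgroup.mem_centralizer_iff.mp hu.2 s rfl
      have h6 : φ s u = u := by
        apply Subtype.ext
        rw [hφ s u, h5]
        group
      have h7 := hconj s u
      rw [h6] at h7
      calc f s * iL u = f s * iL u * (f s)⁻¹ * f s := by group
        _ = iL u * f s := by rw [h7]
  have hcardD : Nat.card ↥(iL.range ⊓ Subgroup.centralizer ({f s} : Set _)) =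
      Nat.card ↥(U ⊓ Subgroup.centralizer ({s} : Set G₀)) := by
    rw [hD, Subgroup.card_map_of_injective hiL]
    exact Nat.card_congr (Subgroup.subgroupOfEquivOfLe inf_le_left).toEquiv
  have e1 := Cfsg.Agent.Lib.Helper37.Torus.card_eq_card_mul_relIndex
    (inf_le_left : iL.range ⊓ Subgroup.centralizer ({f s} : Set _) ≤ iL.range)
  have e2 := Cfsg.Agent.Lib.Helper37.Torus.card_eq_card_mul_relIndex
    (inf_le_left : U ⊓ Subgroup.centralizer ({s} : Set G₀) ≤ U)
  rw [hcardV, hcardD, e2] at e1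
  have hpos : 0 < Nat.card ↥(U ⊓ Subgroup.centralizer ({s} : Set G₀)) := Nat.card_pos
  have e3 := Nat.eq_of_mul_eq_mul_left hpos e1
  rw [hcardV, ← e3] at hcore
  exact hcore

/-- TORUS bound for a conjugation action on a normal `p`-subgroup, all `n ≥ 1`. -/
theorem torus_index {G₀ : Type u} [Group G₀] [Finite G₀] {p : ℕ} [Fact p.Prime]
    (U : Subgroup G₀) [hUn : U.Normal] (hU : IsPGroup p U)
    {F : Type} [Field F] [Fintype F] (n : ℕ) (hF : Fintype.card F = p ^ n)
    (π : G₀ →* Matrix.ProjectiveSpecialLinearGroup (Fin 2) F) (hπ : Function.Surjective π)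
    (hker : 2 ≤ n → Subgroup.centralizer (U : Set G₀) ≤ π.ker)
    (s : G₀) (hs : ∃ j : ℕ, s ^ (p ^ j) = 1) (hπs : π s ≠ 1)
    (hsU : s ∉ Subgroup.centralizer (U : Set G₀)) :
    p ^ n ≤ (U ⊓ Subgroup.centralizer ({s} : Set G₀)).relIndex U ∧
      p ^ (2 * n) ≤ Nat.card U := by
  rcases Nat.lt_or_ge n 2 with h2 | h2
  · have hn1 : n = 1 := by
      rcases Nat.eq_zero_or_pos n with h0 | h0
      · subst h0
        rw [pow_zero] at hF
        have := Fintype.one_lt_card (α := F)
        omega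
      · omega
    subst hn1
    have hsN : s ∈ Subgroup.normalizer (U : Set G₀) := by
      rw [Subgroup.normalizer_eq_top]
      exact Subgroup.mem_top s
    have h := Cfsg.Agent.Lib.Helper37.Torus.pkgSmall.{u} p U hU s hsN hs hsU
    rw [pow_one, mul_one]
    exact ⟨h.2, h.1⟩
  · exact torus_core U hU n hF h2 π hπ (hker h2) s hs hπs

end Cfsg.Agent.Lib.Helper31.PU
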